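import Cfsg.Agent.H18.USix

/-!
# `PSU₆(2)`: the elements of order 3 with `3^6 ∣ |C(z)|` are real
-/

set_option autoImplicit false

namespace Cfsg.Agent.H18.USix

open Cfsg Cfsg.Agent.H226.KList Subgroup

universe u

theorem u6_inv {K : Type u} [Group K] [Finite K] (h : PSUn 6 2 K) {z : K} (hz : orderOf z = 3)
    (h3 : 3 ^ 6 ∣ Nat.card ↥(centralizer ({z} : Set K))) : ∃ g : K, g * z * g⁻¹ = z⁻¹ := by
  have h1 : centralizer ({z⁻¹} : Set K) = centralizer ({z} : Set K) := by
    ext x
    rw [mem_centralizer_singleton_iff, mem_centralizer_singleton_iff]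
    exact (Commute.inv_right_iff (a := x) (b := z))
  have h2 := u6_three_conj h hz (by rw [orderOf_inv]; exact hz) h3 (by rw [h1]; exact h3)
  exact isConj_iff.1 h2

end Cfsg.Agent.H18.USix
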